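import Mathlib

/-!
Counting tools for the Sylow structure of groups of Hall–Janko type: fixed points of
elements of prime order, Sylow counts inside subgroups, centres of `2`-subgroups.
-/

set_option autoImplicit false
set_option linter.style.haveILetI false

namespace CfsgLib.InvChar.HJSylow

open scoped Pointwise

variable {G : Type*} [Group G]

/-- The centralizer of an element. -/
abbrev cent (x : G) : Subgroup G := Subgroup.centralizer ({x} : Set G)

theorem mem_cent {x y : G} : y ∈ cent x ↔ y * x = x * y :=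
  Subgroup.mem_centralizer_singleton_iff

theorem comm_of_mem_cent {x y : G} (h : y ∈ cent x) : x ∈ cent y :=
  mem_cent.2 (mem_cent.1 h).symm

theorem self_mem_cent (x : G) : x ∈ cent x := mem_cent.2 rfl

theorem conj_mem_cent {g x y : G} (h : y ∈ cent x) : g * y * g⁻¹ ∈ cent (g * x * g⁻¹) := by
  rw [mem_cent] at h ⊢
  calc g * y * g⁻¹ * (g * x * g⁻¹) = g * (y * x) * g⁻¹ := by group
    _ = g * (x * y) * g⁻¹ := by rw [h]
    _ = g * x * g⁻¹ * (g * y * g⁻¹) := by group

theorem orderOf_conj' (g x : G) : orderOf (g * x * g⁻¹) = orderOf x :=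
  (MulAut.conj g).orderOf_eq x

theorem isConj_conj (g x : G) : IsConj x (g * x * g⁻¹) := isConj_iff.2 ⟨g, rfl⟩

/-- Intersections of centralizers along conjugation. -/
theorem card_cent_inf_conj (g x y : G) :
    Nat.card ↥(cent (g * x * g⁻¹) ⊓ cent (g * y * g⁻¹)) = Nat.card ↥(cent x ⊓ cent y) := by
  refine Nat.card_congr
    { toFun := fun a => ⟨g⁻¹ * a * g, ?_, ?_⟩
      invFun := fun a => ⟨g * a * g⁻¹, conj_mem_cent a.2.1, conj_mem_cent a.2.2⟩
      left_inv := fun a => Subtype.ext (by simp [mul_assoc])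
      right_inv := fun a => Subtype.ext (by simp [mul_assoc]) }
  · have := conj_mem_cent (g := g⁻¹) a.2.1
    simpa [mul_assoc] using this
  · have := conj_mem_cent (g := g⁻¹) a.2.2
    simpa [mul_assoc] using this

theorem card_cent_conj (g x : G) : Nat.card ↥(cent (g * x * g⁻¹)) = Nat.card ↥(cent x) := by
  have h := card_cent_inf_conj g x x
  rwa [inf_idem, inf_idem] at h

theorem zpowers_eq_of_card {p : ℕ} (hp : p.Prime) {L : Subgroup G} (hL : Nat.card L = p) {h : G}
    (hh : h ∈ L) (h1 : h ≠ 1) : Subgroup.zpowers h = L := by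
  haveI : Finite L := Nat.finite_of_card_ne_zero (by rw [hL]; exact hp.ne_zero)
  refine Subgroup.eq_of_le_of_card_ge (Subgroup.zpowers_le.2 hh) ?_
  rw [hL, Nat.card_zpowers]
  have hd : orderOf h ∣ p := hL ▸ Subgroup.orderOf_dvd_natCard L hh
  rcases hp.eq_one_or_self_of_dvd _ hd with h' | h'
  · exact absurd (orderOf_eq_one_iff.1 h') h1
  · exact h'.ge

variable [Finite G]

/-- Fixed points of a permutation of prime order. -/
theorem perm_modEq {α : Type*} [Finite α] {p : ℕ} [Fact p.Prime] (f : Equiv.Perm α)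
    (hf : f ^ p = 1) : Nat.card α ≡ Nat.card {a : α // f a = a} [MOD p] := by
  have h : IsPGroup p (Subgroup.zpowers f) := by
    rw [IsPGroup]
    rintro ⟨_, n, rfl⟩
    refine ⟨1, Subtype.ext ?_⟩
    change (f ^ n) ^ p ^ 1 = 1
    rw [pow_one, ← zpow_natCast, ← zpow_mul, mul_comm, zpow_mul, zpow_natCast, hf, one_zpow]
  suffices heq : Nat.card (MulAction.fixedPoints (Subgroup.zpowers f) α) =
      Nat.card {a : α // f a = a} by
    rw [← heq]; exact h.card_modEq_card_fixedPoints α
  refine Nat.card_congr (Equiv.subtypeEquivRight fun a => ?_)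
  rw [MulAction.mem_fixedPoints]
  constructor
  · exact fun ha => ha ⟨f, Subgroup.mem_zpowers f⟩
  · rintro ha ⟨_, n, rfl⟩
    exact Equiv.Perm.zpow_apply_eq_self_of_apply_eq_self ha n

/-- An element of prime order permuting a set by conjugation: the set and its fixed part have
congruent sizes. -/
theorem set_modEq {p : ℕ} [Fact p.Prime] {h : G} (hp : h ^ p = 1) (S : Set G)
    (hS : ∀ x ∈ S, h * x * h⁻¹ ∈ S) :
    Nat.card S ≡ Nat.card {x : G // x ∈ S ∧ x * h = h * x} [MOD p] := by
  have hbij : Function.Bijective (fun x : S => (⟨h * x * h⁻¹, hS _ x.2⟩ : S)) :=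
    Finite.injective_iff_bijective.1 fun x y hxy => Subtype.ext (by
      have := congrArg Subtype.val hxy
      simpa using this)
  let f : Equiv.Perm S := Equiv.ofBijective _ hbij
  have hpow : ∀ (n : ℕ) (x : S), (((f ^ n) x : S) : G) = h ^ n * x * (h ^ n)⁻¹ := by
    intro n
    induction n with
    | zero => intro x; simp
    | succ n ih =>
      intro x
      rw [pow_succ', Equiv.Perm.mul_apply]
      change h * ((f ^ n) x : G) * h⁻¹ = _
      rw [ih, pow_succ']
      group
  have hf : f ^ p = 1 := Equiv.ext fun x => Subtype.ext (by rw [hpow, hp]; simp)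
  suffices heq : Nat.card {a : S // f a = a} = Nat.card {x : G // x ∈ S ∧ x * h = h * x} by
    rw [← heq]; exact perm_modEq f hf
  exact Nat.card_congr
    { toFun := fun a => ⟨a.1.1, a.1.2, by
        have h2 : h * (a.1 : G) * h⁻¹ = a.1 := congrArg Subtype.val a.2
        rw [mul_inv_eq_iff_eq_mul] at h2
        exact h2.symm⟩
      invFun := fun a => ⟨⟨a.1, a.2.1⟩, Subtype.ext (by
        change h * a.1 * h⁻¹ = a.1
        rw [← a.2.2, mul_inv_cancel_right])⟩
      left_inv := fun a => rfl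
      right_inv := fun a => rfl }

/-- A nontrivial `2`-subgroup has a central involution. -/
theorem exists_central_involution {P : Subgroup G} (hP : IsPGroup 2 P) (hne : P ≠ ⊥) :
    ∃ c ∈ P, orderOf c = 2 ∧ ∀ x ∈ P, c * x = x * c := by
  haveI : Fact (Nat.Prime 2) := ⟨Nat.prime_two⟩
  haveI : Nontrivial P := (Subgroup.nontrivial_iff_ne_bot P).2 hne
  haveI := hP.center_nontrivial
  obtain ⟨k, hk⟩ := IsPGroup.iff_card.1 (hP.to_subgroup (Subgroup.center P))
  have hd : 2 ∣ Nat.card (Subgroup.center P) := by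
    rw [hk]
    refine dvd_pow_self 2 ?_
    rintro rfl
    exact absurd hk (ne_of_gt (Finite.one_lt_card))
  obtain ⟨c, hc⟩ := exists_prime_orderOf_dvd_card' 2 hd
  refine ⟨((c : P) : G), (c : P).2, by rw [Subgroup.orderOf_coe, Subgroup.orderOf_coe, hc], ?_⟩
  intro x hx
  exact congrArg Subtype.val (Subgroup.mem_center_iff.1 c.2 ⟨x, hx⟩).symm

/-- Sylow conjugation inside a subgroup. -/
theorem exists_conj_le {p k : ℕ} [Fact p.Prime] {K A S : Subgroup G} (hA : A ≤ K)
    (hAp : IsPGroup p A) (hS : S ≤ K) (hSc : Nat.card S = p ^ k)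
    (hK : ¬ p ^ (k + 1) ∣ Nat.card K) : ∃ c ∈ K, ∀ a ∈ A, c * a * c⁻¹ ∈ S := by
  have hSp : IsPGroup p (S.subgroupOf K) := by
    refine IsPGroup.of_card (n := k) ?_
    rw [Nat.card_congr (Subgroup.subgroupOfEquivOfLe hS).toEquiv, hSc]
  obtain ⟨P, hP⟩ := hSp.exists_le_sylow
  have hPS : (P : Subgroup K) = S.subgroupOf K := by
    refine (Subgroup.eq_of_le_of_card_ge hP ?_).symm
    rw [Nat.card_congr (Subgroup.subgroupOfEquivOfLe hS).toEquiv, hSc]
    obtain ⟨j, hj⟩ := IsPGroup.iff_card.1 P.2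
    rw [hj]
    refine Nat.pow_le_pow_right (Fact.out : p.Prime).pos ?_
    by_contra hlt
    exact hK ((pow_dvd_pow p (by omega)).trans (hj ▸ Subgroup.card_subgroup_dvd_card _))
  have hA' : IsPGroup p (A.subgroupOf K) :=
    hAp.of_equiv (Subgroup.subgroupOfEquivOfLe hA).symm
  obtain ⟨Q, hQ⟩ := hA'.exists_le_sylow
  obtain ⟨c, hc⟩ := MulAction.exists_smul_eq K Q P
  refine ⟨c, c.2, fun a ha => ?_⟩
  have hm : c * ⟨a, hA ha⟩ * c⁻¹ ∈ ((c • Q : Sylow p K) : Subgroup K) := by
    rw [Sylow.coe_subgroup_smul]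
    exact Subgroup.smul_mem_pointwise_smul _ (MulAut.conj c) _ (hQ (Subgroup.mem_subgroupOf.2 ha))
  rw [hc, hPS] at hm
  exact hm

/-- Sylow conjugation of an element. -/
theorem exists_conj_mem {p k j : ℕ} [Fact p.Prime] {K S : Subgroup G} {a : G} (ha : a ∈ K)
    (haj : a ^ p ^ j = 1) (hS : S ≤ K) (hSc : Nat.card S = p ^ k)
    (hK : ¬ p ^ (k + 1) ∣ Nat.card K) : ∃ c ∈ K, c * a * c⁻¹ ∈ S := by
  have hp : IsPGroup p (Subgroup.zpowers a) := by
    rintro ⟨_, n, rfl⟩
    refine ⟨j, Subtype.ext ?_⟩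
    change (a ^ n) ^ p ^ j = 1
    rw [← zpow_natCast, ← zpow_mul, mul_comm, zpow_mul, zpow_natCast, haj, one_zpow]
  obtain ⟨c, hc, h⟩ := exists_conj_le (Subgroup.zpowers_le.2 ha) hp hS hSc hK
  exact ⟨c, hc, h a (Subgroup.mem_zpowers a)⟩

/-- The Sylow count inside a subgroup. -/
theorem exists_count {p k : ℕ} [Fact p.Prime] {K S : Subgroup G} (hS : S ≤ K)
    (hSc : Nat.card S = p ^ k) (hK : ¬ p ^ (k + 1) ∣ Nat.card K) :
    ∃ n : ℕ, n % p = 1 ∧
      Nat.card K = Nat.card ↥(K ⊓ Subgroup.normalizer (S : Set G)) * n := by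
  have hSp : IsPGroup p (S.subgroupOf K) := by
    refine IsPGroup.of_card (n := k) ?_
    rw [Nat.card_congr (Subgroup.subgroupOfEquivOfLe hS).toEquiv, hSc]
  obtain ⟨P, hP⟩ := hSp.exists_le_sylow
  have hPS : (P : Subgroup K) = S.subgroupOf K := by
    refine (Subgroup.eq_of_le_of_card_ge hP ?_).symm
    rw [Nat.card_congr (Subgroup.subgroupOfEquivOfLe hS).toEquiv, hSc]
    obtain ⟨j, hj⟩ := IsPGroup.iff_card.1 P.2
    rw [hj]
    refine Nat.pow_le_pow_right (Fact.out : p.Prime).pos ?_
    by_contra hlt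
    exact hK ((pow_dvd_pow p (by omega)).trans (hj ▸ Subgroup.card_subgroup_dvd_card _))
  refine ⟨Nat.card (Sylow p K), ?_, ?_⟩
  · have h := card_sylow_modEq_one p K
    rw [Nat.ModEq, Nat.one_mod_eq_one.2 (Fact.out : p.Prime).ne_one] at h
    exact h
  · have hN : Subgroup.normalizer ((P : Subgroup K) : Set K) =
        (K ⊓ Subgroup.normalizer (S : Set G)).subgroupOf K := by
      rw [hPS]
      ext x
      rw [Subgroup.mem_subgroupOf, Subgroup.mem_inf, Subgroup.mem_normalizer_iff,
        Subgroup.mem_normalizer_iff]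
      constructor
      · intro h
        refine ⟨x.2, fun a => ⟨fun ha => ?_, fun ha => ?_⟩⟩
        · exact (h ⟨a, hS ha⟩).1 ha
        · have hc : (x : G) * a * (x : G)⁻¹ ∈ K := hS ha
          have hak : a ∈ K := by
            have := K.mul_mem (K.mul_mem (K.inv_mem x.2) hc) x.2
            simpa [mul_assoc] using this
          exact (h ⟨a, hak⟩).2 ha
      · rintro ⟨-, h⟩ a
        exact h (a : G)
    rw [Sylow.card_eq_index_normalizer P,
      show Subgroup.normalizer (P : Set K) = (K ⊓ Subgroup.normalizer (S : Set G)).subgroupOf K from hN,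
      ← Nat.card_congr (Subgroup.subgroupOfEquivOfLe
        (inf_le_left : K ⊓ Subgroup.normalizer (S : Set G) ≤ K)).toEquiv,
      Subgroup.card_mul_index]

/-- An element of a subgroup normalising a subgroup of prime order. -/
theorem mem_normalizer_zpowers {h n : G} (hn : n * h * n⁻¹ ∈ Subgroup.zpowers h) :
    n ∈ Subgroup.normalizer ((Subgroup.zpowers h : Subgroup G) : Set G) := by
  refine Subgroup.mem_normalizer_fintype ?_
  rintro _ ⟨i, rfl⟩
  have := (Subgroup.zpowers h).zpow_mem hn i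
  rwa [conj_zpow] at this

/-- An element normalising a subgroup of order three either centralizes or inverts its
generator. -/
theorem conj_cases_three {h n : G} (hh : orderOf h = 3)
    (hn : n ∈ Subgroup.normalizer ((Subgroup.zpowers h : Subgroup G) : Set G)) :
    n * h * n⁻¹ = h ∨ n * h * n⁻¹ = h⁻¹ := by
  classical
  have hm : n * h * n⁻¹ ∈ Subgroup.zpowers h :=
    (Subgroup.mem_normalizer_iff.1 hn h).1 (Subgroup.mem_zpowers h)
  rw [mem_zpowers_iff_mem_range_orderOf, hh] at hm
  obtain ⟨i, hi, hie⟩ := Finset.mem_image.1 hm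
  rw [Finset.mem_range] at hi
  interval_cases i
  · exfalso
    have h1 : h = 1 := by
      simpa using (show n * h * n⁻¹ = 1 by simpa using hie.symm)
    rw [h1, orderOf_one] at hh
    exact absurd hh (by norm_num)
  · exact Or.inl (by simpa using hie.symm)
  · right
    rw [← hie, eq_inv_iff_mul_eq_one, ← pow_succ]
    rw [show 2 + 1 = orderOf h by rw [hh], pow_orderOf_eq_one]

end CfsgLib.InvChar.HJSylow
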