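import Cfsg.Prelude.Def_Transfer
import Cfsg.Prelude.Def_TwoFusion
import Cfsg.Agent.Lib.InvChar.HallJankoSylow.Tools
import Mathlib.GroupTheory.SpecificGroups.Alternating.Simple

/-!
The data of a group of Hall–Janko type used for its odd Sylow structure, and the centralizers
of odd elements inside the two involution centralizers.
-/

set_option autoImplicit false
set_option linter.style.haveILetI false
set_option maxRecDepth 4000

open Cfsg

namespace CfsgLib.InvChar.HJSylow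

theorem card_alt_five : Nat.card (alternatingGroup (Fin 5)) = 60 := by
  rw [Nat.card_eq_fintype_card]
  decide +kernel

theorem alt_five_cent : ∀ a : alternatingGroup (Fin 5), a ≠ 1 →
    (a ^ 3 = 1 → (Finset.univ.filter fun b => b * a = a * b).card = 3) ∧
    (a ^ 5 = 1 → (Finset.univ.filter fun b => b * a = a * b).card = 5) := by
  decide +kernel

theorem alt_five_cent_card {p : ℕ} (hp : p = 3 ∨ p = 5) {a : alternatingGroup (Fin 5)}
    (ha : orderOf a = p) : Nat.card {b : alternatingGroup (Fin 5) // b * a = a * b} = p := by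
  have h1 : a ≠ 1 := by
    rintro rfl
    rw [orderOf_one] at ha
    omega
  have hpw : a ^ p = 1 := ha ▸ pow_orderOf_eq_one a
  rw [Nat.card_eq_fintype_card, Fintype.card_subtype]
  rcases hp with rfl | rfl
  · exact (alt_five_cent a h1).1 hpw
  · exact (alt_five_cent a h1).2 hpw

variable {G : Type*} [Group G]

/-- A group of Hall–Janko type, with the data computed from the centralizer of `z`. -/
structure Setting (z t : G) (Q : Subgroup G) : Prop where
  oz : orderOf z = 2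
  ot : orderOf t = 2
  nc : ¬ IsConj z t
  cls : ∀ x : G, orderOf x = 2 → IsConj z x ∨ IsConj t x
  Q_le : Q ≤ cent z
  Q_conj : ∀ c ∈ cent z, ∀ q ∈ Q, c * q * c⁻¹ ∈ Q
  Q_ext : IsExtraspecial 2 Q
  Q_card : Nat.card Q = 32
  z_mem : z ∈ Q
  Q_cen : cent z ⊓ Subgroup.centralizer (Q : Set G) ≤ Q
  quot : ∃ φ : cent z →* alternatingGroup (Fin 5),
    Function.Surjective φ ∧ ∀ c : cent z, φ c = 1 ↔ (c : G) ∈ Q
  Q_inv : ∀ x ∈ Q, orderOf x = 2 → IsConj z x
  Q_out : ∀ x ∈ cent z, orderOf x = 2 → x ∉ Q → IsConj t x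
  ct : ∃ V B : Subgroup G, IsInternalDirectProduct V B (cent t) ∧ Nat.card V = 4 ∧
    (∀ v ∈ V, v ^ 2 = 1) ∧ t ∈ V ∧ Nonempty (B ≃* alternatingGroup (Fin 5)) ∧
    (∀ x ∈ cent t, orderOf x = 2 → x ∉ B → IsConj t x)
  card : Nat.card G = 604800

namespace Setting

variable {z t : G} {Q : Subgroup G}

/-- The setting at another involution of the class of `t`. -/
theorem conj_t (S : Setting z t Q) (g : G) : Setting z (g * t * g⁻¹) Q := by
  obtain ⟨V, B, ⟨hV, hB, hcomm, hinf, hsup⟩, hV4, hV2, htV, ⟨e⟩, hout⟩ := S.ct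
  refine { S with
    ot := (orderOf_conj' g t).trans S.ot
    nc := fun h => S.nc (h.trans (isConj_conj g t).symm)
    Q_out := fun x h1 h2 h3 => (isConj_conj g t).symm.trans (S.Q_out x h1 h2 h3)
    cls := fun x hx => (S.cls x hx).imp id fun h => (isConj_conj g t).symm.trans h
    ct := ?_ }
  let φ : G →* G := (MulAut.conj g).toMonoidHom
  have hφ : Function.Injective φ := (MulAut.conj g).injective
  have hC : (cent t).map φ = cent (g * t * g⁻¹) := by
    ext x
    constructor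
    · rintro ⟨y, hy, rfl⟩
      exact conj_mem_cent hy
    · intro hx
      refine ⟨g⁻¹ * x * g, ?_, by simp [φ, mul_assoc]⟩
      have := conj_mem_cent (g := g⁻¹) hx
      simpa [mul_assoc] using this
  refine ⟨V.map φ, B.map φ, ⟨?_, ?_, ?_, ?_, ?_⟩, ?_, ?_, ⟨t, htV, rfl⟩, ?_, ?_⟩
  · rw [← hC]; exact Subgroup.map_mono hV
  · rw [← hC]; exact Subgroup.map_mono hB
  · rintro _ ⟨a, ha, rfl⟩ _ ⟨b, hb, rfl⟩
    rw [← map_mul, ← map_mul, hcomm a ha b hb]
  · rw [← Subgroup.map_inf _ _ _ hφ, hinf, Subgroup.map_bot]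
  · rw [← Subgroup.map_sup, hsup, hC]
  · rw [← Nat.card_congr (V.equivMapOfInjective φ hφ).toEquiv, hV4]
  · rintro _ ⟨a, ha, rfl⟩
    rw [← map_pow, hV2 a ha, map_one]
  · exact ⟨(B.equivMapOfInjective φ hφ).symm.trans e⟩
  · intro x hx hx2 hxB
    rw [← hC] at hx
    obtain ⟨y, hy, rfl⟩ := hx
    have hy2 : orderOf y = 2 := (orderOf_conj' g y).symm.trans hx2
    exact (isConj_conj g t).symm.trans
      ((hout y hy hy2 fun h => hxB ⟨y, h, rfl⟩).trans (isConj_conj g y))

variable [Finite G] (S : Setting z t Q)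
include S

theorem zz : z * z = 1 := by rw [← sq, ← S.oz, pow_orderOf_eq_one]

theorem z_ne : z ≠ 1 := fun h => by
  have := S.oz
  rw [h, orderOf_one] at this
  omega

theorem card_cent_z : Nat.card (cent z) = 1920 := by
  obtain ⟨φ, hφ, hk⟩ := S.quot
  have hker : Nat.card φ.ker = 32 := by
    rw [← S.Q_card]
    exact Nat.card_congr
      { toFun := fun a => ⟨(a : cent z), (hk a).1 a.2⟩
        invFun := fun q => ⟨⟨q, S.Q_le q.2⟩, (hk _).2 q.2⟩
        left_inv := fun a => rfl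
        right_inv := fun q => rfl }
  rw [← Subgroup.card_mul_index φ.ker, hker, Subgroup.index_ker,
    MonoidHom.range_eq_top.2 hφ, Subgroup.card_top, card_alt_five]

/-- An element of order three or five commuting with `t`: its centralizer in `C(t)`. -/
theorem t_cent {p : ℕ} (hp : p = 3 ∨ p = 5) {h : G} (hh : orderOf h = p) (hc : h ∈ cent t) :
    Nat.card ↥(cent t ⊓ cent h) = 4 * p ∧
    (∀ x ∈ cent t ⊓ cent h, x ^ (2 * p) = 1) ∧
    (∀ x ∈ cent t ⊓ cent h, orderOf x = 2 → IsConj t x) := by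
  obtain ⟨V, B, ⟨hV, hB, hcomm, hinf, hsup⟩, hV4, hV2, htV, ⟨e⟩, hout⟩ := S.ct
  have hodd : ∃ m, p = 2 * m + 1 := by
    rcases hp with rfl | rfl
    · exact ⟨1, rfl⟩
    · exact ⟨2, rfl⟩
  obtain ⟨m, hm⟩ := hodd
  have hdec : ∀ c ∈ cent t, ∃ v ∈ V, ∃ b ∈ B, c = v * b := fun c hc => by
    rw [← hsup] at hc
    have hnorm : V ≤ Subgroup.normalizer (B : Set G) := fun v hv => by
      refine Subgroup.mem_normalizer_fintype fun b hb => ?_
      rw [hcomm v hv b hb, mul_inv_cancel_right]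
      exact hb
    have hcl : c ∈ ((V ⊔ B : Subgroup G) : Set G) := hc
    rw [Subgroup.coe_mul_of_left_le_normalizer_right _ _ hnorm] at hcl
    obtain ⟨v, hv, b, hb, rfl⟩ := Set.mem_mul.1 hcl
    exact ⟨v, hv, b, hb, rfl⟩
  have huniq : ∀ v ∈ V, v ∈ B → v = 1 := fun v hv hvB => by
    have h1 : v ∈ V ⊓ B := ⟨hv, hvB⟩
    rwa [hinf, Subgroup.mem_bot] at h1
  have hpow : ∀ v ∈ V, v ^ p = v := fun v hv => by
    rw [hm, pow_succ, pow_mul, hV2 v hv, one_pow, one_mul]
  have hhB : h ∈ B := by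
    obtain ⟨v, hv, b, hb, hvb⟩ := hdec h hc
    have h1 : h ^ p = 1 := hh ▸ pow_orderOf_eq_one h
    rw [hvb, (show Commute v b from hcomm v hv b hb).mul_pow, hpow v hv] at h1
    have : v = 1 := huniq v hv (by rw [eq_inv_of_mul_eq_one_left h1]; exact B.inv_mem (B.pow_mem hb p))
    rw [hvb, this, one_mul]
    exact hb
  have hord : orderOf (e ⟨h, hhB⟩) = p := by
    rw [MulEquiv.orderOf_eq, ← Subgroup.orderOf_coe]
    exact hh
  have hcard : Nat.card {b : B // (b : G) * h = h * b} = p := by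
    rw [← alt_five_cent_card hp hord]
    refine Nat.card_congr (e.toEquiv.subtypeEquiv fun b => ?_)
    change _ ↔ e b * e ⟨h, hhB⟩ = e ⟨h, hhB⟩ * e b
    rw [← map_mul, ← map_mul, e.injective.eq_iff, Subtype.ext_iff, Subgroup.coe_mul,
      Subgroup.coe_mul]
  have hbp : ∀ b ∈ B, b * h = h * b → b ^ p = 1 := fun b hb hbh => by
    have h1 : Nat.card ↥(B ⊓ cent h) = p := by
      rw [← hcard]
      exact Nat.card_congr
        { toFun := fun x => ⟨⟨x, x.2.1⟩, mem_cent.1 x.2.2⟩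
          invFun := fun x => ⟨x.1.1, x.1.2, mem_cent.2 x.2⟩
          left_inv := fun x => rfl
          right_inv := fun x => rfl }
    exact orderOf_dvd_iff_pow_eq_one.1
      (h1 ▸ Subgroup.orderOf_dvd_natCard _ (⟨hb, mem_cent.2 hbh⟩ : b ∈ B ⊓ cent h))
  have hsplit : ∀ x ∈ cent t ⊓ cent h, ∃ v ∈ V, ∃ b ∈ B, x = v * b ∧ b * h = h * b := by
    intro x hx
    obtain ⟨v, hv, b, hb, rfl⟩ := hdec x hx.1
    refine ⟨v, hv, b, hb, rfl, ?_⟩
    have hvh : v * h = h * v := hcomm v hv h hhB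
    have h2 : v * b * h = h * (v * b) := mem_cent.1 hx.2
    rw [← mul_assoc h v b, ← hvh, mul_assoc, mul_assoc] at h2
    exact mul_left_cancel h2
  refine ⟨?_, fun x hx => ?_, fun x hx hx2 => ?_⟩
  · rw [← hcard, ← hV4, ← Nat.card_prod]
    refine (Nat.card_congr (Equiv.ofBijective
      (fun a : V × {b : B // (b : G) * h = h * b} => (⟨a.1 * a.2.1,
        Subgroup.mul_mem _ (hV a.1.2) (hB a.2.1.2),
        mem_cent.2 (by
          rw [mul_assoc, a.2.2, ← mul_assoc, hcomm _ a.1.2 h hhB, mul_assoc])⟩ :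
        ↥(cent t ⊓ cent h))) ⟨fun a a' he => ?_, fun x => ?_⟩)).symm
    · have he' : (a.1 : G) * a.2.1 = a'.1 * a'.2.1 := congrArg Subtype.val he
      have hv : (a'.1 : G)⁻¹ * a.1 = 1 := huniq _ (V.mul_mem (V.inv_mem a'.1.2) a.1.2) (by
        have : (a'.1 : G)⁻¹ * a.1 = (a'.2.1 : G) * (a.2.1 : G)⁻¹ := by
          rw [eq_mul_inv_iff_mul_eq, mul_assoc, he', inv_mul_cancel_left]
        rw [this]
        exact B.mul_mem a'.2.1.2 (B.inv_mem a.2.1.2))
      have h1 : a.1 = a'.1 := Subtype.ext (inv_mul_eq_one.1 hv).symm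
      refine Prod.ext h1 (Subtype.ext (Subtype.ext ?_))
      rw [h1] at he'
      exact mul_left_cancel he'
    · obtain ⟨v, hv, b, hb, hx, hbh⟩ := hsplit x x.2
      exact ⟨(⟨v, hv⟩, ⟨⟨b, hb⟩, hbh⟩), Subtype.ext hx.symm⟩
  · obtain ⟨v, hv, b, hb, rfl, hbh⟩ := hsplit x hx
    rw [(show Commute v b from hcomm v hv b hb).mul_pow, pow_mul, hV2 v hv, one_pow, one_mul,
      mul_comm 2 p, pow_mul, hbp b hb hbh, one_pow]
  · refine hout x hx.1 hx2 fun hxB => ?_
    have h1 : x ^ p = 1 := hbp x hxB (mem_cent.1 hx.2)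
    have h2 : orderOf x ∣ p := orderOf_dvd_of_pow_eq_one h1
    rw [hx2] at h2
    omega

end Setting

end CfsgLib.InvChar.HJSylow
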