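import Cfsg.Agent.Lib.InvChar.HallJankoSylow.ZSide

/-!
The two types of elements of order three and five: those centralized by a conjugate of `z` and
those centralized by a conjugate of `t`.
-/

set_option autoImplicit false
set_option linter.style.haveILetI false
set_option linter.unusedSectionVars false

open Cfsg

namespace CfsgLib.InvChar.HJSylow

variable {G : Type*} [Group G] [Finite G]

/-- A Sylow `2`-subgroup of a subgroup containing a given `2`-subgroup. -/
theorem exists_sylow_in {K A : Subgroup G} (hA : A ≤ K) (hAp : IsPGroup 2 A) :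
    ∃ (P : Subgroup G) (k : ℕ), P ≤ K ∧ A ≤ P ∧ Nat.card P = 2 ^ k ∧ IsPGroup 2 P ∧
      ¬ 2 ^ (k + 1) ∣ Nat.card K := by
  haveI : Fact (Nat.Prime 2) := ⟨Nat.prime_two⟩
  obtain ⟨P, hP⟩ := (hAp.of_equiv (Subgroup.subgroupOfEquivOfLe hA).symm).exists_le_sylow
  obtain ⟨k, hk⟩ := IsPGroup.iff_card.1 P.2
  have hc : Nat.card ↥((P : Subgroup K).map K.subtype) = 2 ^ k := by
    rw [← Nat.card_congr ((P : Subgroup K).equivMapOfInjective _ K.subtype_injective).toEquiv, hk]
  refine ⟨(P : Subgroup K).map K.subtype, k, Subgroup.map_subtype_le _, ?_, hc,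
    IsPGroup.of_card hc, ?_⟩
  · intro a ha
    exact ⟨⟨a, hA ha⟩, hP (Subgroup.mem_subgroupOf.2 ha), rfl⟩
  · intro hd
    have h1 := P.card_eq_multiplicity
    rw [hk] at h1
    have h2 : k + 1 ≤ (Nat.card K).factorization 2 :=
      (Nat.Prime.pow_dvd_iff_le_factorization Nat.prime_two Nat.card_pos.ne').1 hd
    have := Nat.pow_right_injective le_rfl h1
    omega

theorem isPGroup_zpowers {x : G} (hx : orderOf x = 2) : IsPGroup 2 (Subgroup.zpowers x) :=
  IsPGroup.of_card (n := 1) (by rw [Nat.card_zpowers, hx, pow_one])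

namespace Setting

variable {z t : G} {Q : Subgroup G} (S : Setting z t Q)
include S

theorem card_cent_t : Nat.card (cent t) = 240 := by
  obtain ⟨V, B, ⟨hV, hB, hcomm, hinf, hsup⟩, hV4, -, -, ⟨e⟩, -⟩ := S.ct
  have hB60 : Nat.card B = 60 := by rw [Nat.card_congr e.toEquiv, card_alt_five]
  rw [← hsup]
  have hnorm : V ≤ Subgroup.normalizer (B : Set G) := fun v hv => by
    refine Subgroup.mem_normalizer_fintype fun b hb => ?_
    rw [hcomm v hv b hb, mul_inv_cancel_right]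
    exact hb
  have e' : V × B ≃ ↥(V ⊔ B) := Equiv.ofBijective
    (fun a => ⟨a.1 * a.2, Subgroup.mul_mem_sup a.1.2 a.2.2⟩) ⟨fun a a' he => ?_, fun x => ?_⟩
  · rw [← Nat.card_congr e', Nat.card_prod, hV4, hB60]
  · have he' : (a.1 : G) * a.2 = a'.1 * a'.2 := congrArg Subtype.val he
    have h1 : (a'.1 : G)⁻¹ * a.1 ∈ V ⊓ B := by
      refine ⟨V.mul_mem (V.inv_mem a'.1.2) a.1.2, ?_⟩
      have : (a'.1 : G)⁻¹ * a.1 = (a'.2 : G) * (a.2 : G)⁻¹ := by
        rw [eq_mul_inv_iff_mul_eq, mul_assoc, he', inv_mul_cancel_left]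
      rw [this]
      exact B.mul_mem a'.2.2 (B.inv_mem a.2.2)
    rw [hinf, Subgroup.mem_bot, inv_mul_eq_one] at h1
    have h2 : a.1 = a'.1 := Subtype.ext h1.symm
    refine Prod.ext h2 (Subtype.ext ?_)
    rw [h2] at he'
    exact mul_left_cancel he'
  · have hcl : (x : G) ∈ ((V ⊔ B : Subgroup G) : Set G) := x.2
    rw [Subgroup.coe_mul_of_left_le_normalizer_right _ _ hnorm] at hcl
    obtain ⟨v, hv, b, hb, hvb⟩ := Set.mem_mul.1 hcl
    exact ⟨(⟨v, hv⟩, ⟨b, hb⟩), Subtype.ext hvb⟩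

/-- A Sylow `2`-subgroup of the centralizer of an element of order five commuting with `z`. -/
theorem two_part_five {f : G} (hf : orderOf f = 5) (hc : f ∈ cent z) :
    ∃ P : Subgroup G, P ≤ cent z ⊓ cent f ∧ Nat.card P = 2 ∧ ¬ 2 ^ 2 ∣ Nat.card (cent f) := by
  obtain ⟨P, k, hPK, hzP, hk, hPg, hmax⟩ := exists_sylow_in
    (Subgroup.zpowers_le.2 (comm_of_mem_cent hc)) (isPGroup_zpowers S.oz)
  have hne : P ≠ ⊥ := fun h => S.z_ne (by
    have := hzP (Subgroup.mem_zpowers z); rwa [h, Subgroup.mem_bot] at this)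
  obtain ⟨c, hcP, hc2, hcc⟩ := exists_central_involution hPg hne
  have hcK : c ∈ cent z ⊓ cent f :=
    ⟨mem_cent.2 (hcc z (hzP (Subgroup.mem_zpowers z))), hPK hcP⟩
  have hcz : c = z := by
    have hcQ : c ∈ Q ⊓ cent f :=
      ⟨(S.z_cent (Or.inr rfl) hf hc).2.1 c hcK (hc2 ▸ pow_orderOf_eq_one c), hPK hcP⟩
    classical
    have he := zpowers_eq_of_card Nat.prime_two (S.card_Q_cent_five hf hc)
      ⟨S.z_mem, comm_of_mem_cent hc⟩ S.z_ne
    rw [← he, mem_zpowers_iff_mem_range_orderOf, S.oz] at hcQ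
    simp [Finset.range_add_one] at hcQ
    rcases hcQ with h | h
    · exact h
    · rw [h, orderOf_one] at hc2; exact absurd hc2 (by norm_num)
  have hle : P ≤ cent z ⊓ cent f := fun x hx =>
    ⟨mem_cent.2 (hcz ▸ (hcc x hx).symm), hPK hx⟩
  have hd := Subgroup.card_dvd_of_le hle
  rw [S.card_z_cent_five hf hc, hk] at hd
  have h1 : 1 ≤ k := by
    by_contra hk0
    rw [Nat.lt_one_iff.1 (not_le.1 hk0), pow_zero] at hk
    exact hne ((Subgroup.card_eq_one).1 hk)
  have h2 : k < 2 := by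
    by_contra hge
    have : 2 ^ 2 ∣ 10 := (pow_dvd_pow 2 (by omega)).trans hd
    norm_num at this
  obtain rfl : k = 1 := by omega
  exact ⟨P, hle, by rw [hk, pow_one], hmax⟩

/-- A Sylow `2`-subgroup of the centralizer of an element of order three commuting with `z`. -/
theorem two_part_three {w : G} (hw : orderOf w = 3) (hc : w ∈ cent z) :
    ¬ 2 ^ 4 ∣ Nat.card (cent w) := by
  have hD : IsPGroup 2 ↥(Q ⊓ cent w) :=
    IsPGroup.of_card (n := 3) (by rw [S.card_Q_cent_three hw hc]; norm_num)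
  obtain ⟨P, k, hPK, hDP, hk, hPg, hmax⟩ := exists_sylow_in (inf_le_right : Q ⊓ cent w ≤ cent w) hD
  have hzP : z ∈ P := hDP ⟨S.z_mem, comm_of_mem_cent hc⟩
  have hne : P ≠ ⊥ := fun h => S.z_ne (by rw [h, Subgroup.mem_bot] at hzP; exact hzP)
  obtain ⟨c, hcP, hc2, hcc⟩ := exists_central_involution hPg hne
  have hcK : c ∈ cent z ⊓ cent w := ⟨mem_cent.2 (hcc z hzP), hPK hcP⟩
  have hc1 : c ≠ 1 := fun h => by rw [h, orderOf_one] at hc2; exact absurd hc2 (by norm_num)
  have hcz : c = z := by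
    by_contra hne'
    have hcQ := (S.z_cent (Or.inl rfl) hw hc).2.1 c hcK (hc2 ▸ pow_orderOf_eq_one c)
    obtain ⟨d, hd, hdc⟩ := S.exists_noncomm hw hc hcQ hc1 hne' (mem_cent.1 hcK.2)
    have h2 : d * c * d⁻¹ = c := by rw [← hcc d (hDP hd), mul_inv_cancel_right]
    rw [h2] at hdc
    exact S.z_ne (mul_eq_right.1 hdc.symm)
  have hle : P ≤ cent z ⊓ cent w := fun x hx =>
    ⟨mem_cent.2 (hcz ▸ (hcc x hx).symm), hPK hx⟩
  have hd := Subgroup.card_dvd_of_le hle
  rw [S.card_z_cent_three hw hc, hk] at hd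
  intro h16
  refine hmax ((pow_dvd_pow 2 ?_).trans h16)
  by_contra hge
  have : 2 ^ 4 ∣ 24 := (pow_dvd_pow 2 (by omega)).trans hd
  norm_num at this

/-- Every involution centralizing an element of order three or five of `C(z)` is conjugate to
`z`. -/
theorem conj_z_of_cent {p : ℕ} (hp : p = 3 ∨ p = 5) {h : G} (hh : orderOf h = p)
    (hc : h ∈ cent z) {x : G} (hx : orderOf x = 2) (hxh : x ∈ cent h) : IsConj z x := by
  haveI : Fact (Nat.Prime 2) := ⟨Nat.prime_two⟩
  obtain ⟨P, k, hP, hk, hmax⟩ : ∃ (P : Subgroup G) (k : ℕ), P ≤ cent z ⊓ cent h ∧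
      Nat.card P = 2 ^ k ∧ ¬ 2 ^ (k + 1) ∣ Nat.card (cent h) := by
    rcases hp with rfl | rfl
    · refine ⟨Q ⊓ cent h, 3, fun a ha => ⟨S.Q_le ha.1, ha.2⟩, ?_, S.two_part_three hh hc⟩
      rw [S.card_Q_cent_three hh hc]; norm_num
    · obtain ⟨P, hP, hk, hmax⟩ := S.two_part_five hh hc
      exact ⟨P, 1, hP, hk, hmax⟩
  obtain ⟨c, -, hcm⟩ := exists_conj_mem (j := 1) hxh (by rw [pow_one, ← hx, pow_orderOf_eq_one])
    (fun a ha => (hP ha).2) hk hmax
  exact ((S.z_cent hp hh hc).2.2.1 _ (hP hcm) ((orderOf_conj' c x).trans hx)).trans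
    (isConj_conj c x).symm

/-- An element of order three or five is not centralized by both kinds of involutions. -/
theorem not_both {p : ℕ} (hp : p = 3 ∨ p = 5) {h : G} (hh : orderOf h = p) {x y : G}
    (hx : IsConj z x) (hxh : h ∈ cent x) (hy : IsConj t y) (hyh : h ∈ cent y) : False := by
  obtain ⟨g, rfl⟩ := isConj_iff.1 hx
  have hh' : orderOf (g⁻¹ * h * g) = p := by
    have := orderOf_conj' g⁻¹ h
    rw [inv_inv] at this
    rw [this, hh]
  have hc : g⁻¹ * h * g ∈ cent z := by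
    have := conj_mem_cent (g := g⁻¹) hxh
    simpa [mul_assoc] using this
  have hy' : g⁻¹ * y * g ∈ cent (g⁻¹ * h * g) := by
    have := conj_mem_cent (g := g⁻¹) (comm_of_mem_cent hyh)
    simpa [mul_assoc] using this
  have hyo : orderOf (g⁻¹ * y * g) = 2 := by
    have h1 := orderOf_conj' g⁻¹ y
    rw [inv_inv] at h1
    obtain ⟨a, rfl⟩ := isConj_iff.1 hy
    rw [h1, orderOf_conj', S.ot]
  have h2 := S.conj_z_of_cent hp hh' hc hyo hy'
  refine S.nc (h2.trans ?_)
  refine IsConj.trans ?_ hy.symm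
  exact isConj_iff.2 ⟨g, by group⟩

/-- In `C(z)` and `C(t)` the subgroups of order three, and of order five, are conjugate. -/
theorem conj_in_cent {p : ℕ} (hp : p = 3 ∨ p = 5) {x : G} (hx : x = z ∨ x = t) {h h' : G}
    (hh : orderOf h = p) (hc : h ∈ cent x) (hh' : orderOf h' = p) (hc' : h' ∈ cent x) :
    ∃ c ∈ cent x, c * h' * c⁻¹ ∈ Subgroup.zpowers h := by
  haveI : Fact p.Prime := ⟨by rcases hp with rfl | rfl <;> norm_num⟩
  refine exists_conj_mem (p := p) (j := 1) (k := 1) hc' (by rw [pow_one, ← hh', pow_orderOf_eq_one])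
    (Subgroup.zpowers_le.2 hc) (by rw [Nat.card_zpowers, hh, pow_one]) ?_
  rcases hx with rfl | rfl
  · rw [S.card_cent_z]; rcases hp with rfl | rfl <;> norm_num
  · rw [S.card_cent_t]; rcases hp with rfl | rfl <;> norm_num

/-- Elements normalizing the subgroup of an element of order three or five in `C(z)` or `C(t)`
that do not centralize it. -/
theorem exists_mover {p : ℕ} (hp : p = 3 ∨ p = 5) {x : G} (hx : (x = z ∧ p = 3) ∨ x = t) {h : G}
    (hh : orderOf h = p) (hc : h ∈ cent x) :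
    ∃ n ∈ cent x, n ∈ Subgroup.normalizer ((Subgroup.zpowers h : Subgroup G) : Set G) ∧
      n * h * n⁻¹ ≠ h := by
  haveI : Fact p.Prime := ⟨by rcases hp with rfl | rfl <;> norm_num⟩
  by_contra hno
  push Not at hno
  have hle : Subgroup.zpowers h ≤ cent x := Subgroup.zpowers_le.2 hc
  have heq : cent x ⊓ Subgroup.normalizer ((Subgroup.zpowers h : Subgroup G) : Set G) =
      cent x ⊓ cent h := by
    ext a
    refine ⟨fun ha => ⟨ha.1, mem_cent.2 (mul_inv_eq_iff_eq_mul.1 (hno a ha.1 ha.2))⟩,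
      fun ha => ⟨ha.1, mem_normalizer_zpowers ?_⟩⟩
    rw [mem_cent.1 ha.2, mul_inv_cancel_right]
    exact Subgroup.mem_zpowers h
  have hndvd : ¬ p ^ (1 + 1) ∣ Nat.card (cent x) := by
    rcases hx with ⟨rfl, rfl⟩ | rfl
    · rw [S.card_cent_z]; norm_num
    · rw [S.card_cent_t]; rcases hp with rfl | rfl <;> norm_num
  obtain ⟨n, hn, hcard⟩ := exists_count hle (by rw [Nat.card_zpowers, hh, pow_one]) hndvd
  rw [heq] at hcard
  rcases hx with ⟨rfl, rfl⟩ | rfl
  · rw [S.card_cent_z, S.card_z_cent_three hh hc] at hcard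
    omega
  · rw [S.card_cent_t, (S.t_cent hp hh hc).1] at hcard
    rcases hp with rfl | rfl <;> omega

/-- Elements of order three centralized by an involution are conjugate to their inverses. -/
theorem isConj_inv {x : G} (hx : x = z ∨ x = t) {h : G} (hh : orderOf h = 3) (hc : h ∈ cent x) :
    IsConj h h⁻¹ := by
  obtain ⟨n, -, hn, hne⟩ := S.exists_mover (Or.inl rfl) (hx.imp (fun h => ⟨h, rfl⟩) id) hh hc
  rcases conj_cases_three hh hn with h1 | h1
  · exact absurd h1 hne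
  · exact isConj_iff.2 ⟨n, h1⟩

/-- Elements of order three centralized by conjugates of the same involution are conjugate. -/
theorem isConj_three {x : G} (hx : x = z ∨ x = t) {h h' : G} (hh : orderOf h = 3) (hc : h ∈ cent x)
    (hh' : orderOf h' = 3) {x' : G} (hx' : IsConj x x') (hc' : h' ∈ cent x') : IsConj h' h := by
  classical
  obtain ⟨g, rfl⟩ := isConj_iff.1 hx'
  have hc'' : g⁻¹ * h' * g ∈ cent x := by
    have := conj_mem_cent (g := g⁻¹) hc'
    simpa [mul_assoc] using this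
  have ho : orderOf (g⁻¹ * h' * g) = 3 := by
    have h1 := orderOf_conj' g⁻¹ h'
    rw [inv_inv] at h1
    rw [h1, hh']
  obtain ⟨c, -, hcm⟩ := S.conj_in_cent (Or.inl rfl) hx hh hc ho hc''
  have h1 : IsConj h' (c * (g⁻¹ * h' * g) * c⁻¹) :=
    IsConj.trans (isConj_iff.2 ⟨g⁻¹, by group⟩) (isConj_conj c _)
  refine h1.trans ?_
  rw [mem_zpowers_iff_mem_range_orderOf, hh] at hcm
  obtain ⟨i, hi, hie⟩ := Finset.mem_image.1 hcm
  rw [Finset.mem_range] at hi
  have ho' : orderOf (c * (g⁻¹ * h' * g) * c⁻¹) = 3 := (orderOf_conj' c _).trans ho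
  interval_cases i
  · rw [← hie, pow_zero, orderOf_one] at ho'; exact absurd ho' (by norm_num)
  · rw [← hie, pow_one]
  · rw [← hie, show h ^ 2 = h⁻¹ by
      rw [eq_inv_iff_mul_eq_one, ← pow_succ, show 2 + 1 = orderOf h by rw [hh], pow_orderOf_eq_one]]
    exact (S.isConj_inv hx hh hc).symm

end Setting

end CfsgLib.InvChar.HJSylow
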