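import Cfsg.Agent.Lib.InvChar.HallJankoSylow.Tools
import Cfsg.Agent.Lib.TwoGroups.Taussky
import Cfsg.Agent.Lib.Generators.SmallPermGroups
import Cfsg.Agent.Lib.Cores.PCore
import Mathlib.GroupTheory.SpecificGroups.Alternating.Simple
import Mathlib.GroupTheory.Transfer

/-!
Small groups occurring as quotients of centralizers in groups of Hall–Janko type.
-/

set_option autoImplicit false
set_option linter.style.haveILetI false

open Cfsg

namespace CfsgLib.InvChar.HJSylow

variable {H : Type*} [Group H]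

set_option maxRecDepth 8000 in
theorem quaternion_two_unique : ∀ a b : QuaternionGroup 2, a * a = 1 → b * b = 1 → a ≠ 1 → b ≠ 1 →
    a = b := by decide

/-- A nonabelian group of order eight with two involutions is dihedral. -/
theorem dihedral_of_two_involutions [Finite H] (h8 : Nat.card H = 8) (hna : ¬ IsMulCommutative H)
    {a b : H} (ha : a * a = 1) (hb : b * b = 1) (ha1 : a ≠ 1) (hb1 : b ≠ 1) (hab : a ≠ b) :
    Nonempty (H ≃* DihedralGroup 4) := by
  rcases TwoGroups.dihedral_or_quaternion_of_card_eight h8 hna with h | ⟨⟨e⟩⟩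
  · exact h
  · exact absurd (e.injective (quaternion_two_unique (e a) (e b) (by rw [← map_mul, ha, map_one])
      (by rw [← map_mul, hb, map_one]) ((map_ne_one_iff e e.injective).2 ha1)
      ((map_ne_one_iff e e.injective).2 hb1))) hab

/-- If all involutions are conjugate and there are two of them, the centralizer of one does not
cover the group modulo the odd core. -/
theorem sup_oddCore_ne_top [Finite H] {a b : H} (ha : orderOf a = 2) (hb : orderOf b = 2)
    (hab : a ≠ b) (hcomm : a * b = b * a) (hconj : IsConj a b) :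
    cent a ⊔ Cfsg.oddCore H ≠ ⊤ := by
  haveI : (Cfsg.oddCore H).Normal := (inferInstance : (Cfsg.pPrimeCore 2 H).Normal)
  intro htop
  obtain ⟨g, rfl⟩ := isConj_iff.1 hconj
  have hg : g ∈ cent a ⊔ Cfsg.oddCore H := by rw [htop]; exact Subgroup.mem_top g
  obtain ⟨c, hc, o, ho, rfl⟩ := Subgroup.mem_sup_of_normal_right.1 hg
  have h1 : c * o * a * (c * o)⁻¹ * a⁻¹ ∈ Cfsg.oddCore H := by
    have h2 : o * (a * o⁻¹ * a⁻¹) ∈ Cfsg.oddCore H :=
      mul_mem ho ((inferInstance : (Cfsg.oddCore H).Normal).conj_mem _ (inv_mem ho) a)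
    have h3 := (inferInstance : (Cfsg.oddCore H).Normal).conj_mem _ h2 c
    have hca : c * a⁻¹ = a⁻¹ * c := (Commute.inv_right (mem_cent.1 hc : Commute c a)).eq
    rwa [show c * (o * (a * o⁻¹ * a⁻¹)) * c⁻¹ = c * o * a * o⁻¹ * (a⁻¹ * c⁻¹) by group,
      show a⁻¹ * c⁻¹ = c⁻¹ * a⁻¹ from
        ((Commute.inv_inv (mem_cent.1 hc : Commute c a)).eq).symm,
      show c * o * a * o⁻¹ * (c⁻¹ * a⁻¹) = c * o * a * (c * o)⁻¹ * a⁻¹ by group] at h3
  set b := c * o * a * (c * o)⁻¹ with hbdef
  have hbb : b * b = 1 := by rw [← sq, ← hb, pow_orderOf_eq_one]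
  have haa : a * a = 1 := by rw [← sq, ← ha, pow_orderOf_eq_one]
  have hai : a⁻¹ = a := inv_eq_of_mul_eq_one_right haa
  rw [hai] at h1
  have h2 : b * a * (b * a) = 1 := by
    rw [show b * a * (b * a) = b * (a * b) * a by group, hcomm,
      show b * (b * a) * a = b * b * (a * a) by group, hbb, haa, one_mul]
  have hodd : Odd (orderOf (b * a)) :=
    Odd.of_dvd_nat (CfsgLib.Cores.odd_card_oddCore (G := H)) (Subgroup.orderOf_dvd_natCard _ h1)
  have h3 : orderOf (b * a) ∣ 2 := orderOf_dvd_of_pow_eq_one (by rw [sq]; exact h2)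
  have h4 : b * a = 1 := by
    rcases (Nat.dvd_prime Nat.prime_two).1 h3 with h | h
    · exact orderOf_eq_one_iff.1 h
    · rw [h] at hodd; exact absurd hodd (by decide)
  exact hab (mul_right_cancel (b := a) (haa.trans h4.symm))

/-- A symmetric group of degree at least four has two classes of involutions. -/
theorem not_perm_four {n : ℕ} (hn : n = 4 ∨ n = 5)
    (hall : ∀ x y : H, orderOf x = 2 → orderOf y = 2 → IsConj x y) :
    ¬ Nonempty (H ≃* Equiv.Perm (Fin n)) := by
  rintro ⟨e⟩
  obtain ⟨a, b, ha, hb, hsign⟩ : ∃ a b : Equiv.Perm (Fin n), orderOf a = 2 ∧ orderOf b = 2 ∧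
      Equiv.Perm.sign a ≠ Equiv.Perm.sign b := by
    rcases hn with rfl | rfl
    all_goals
      refine ⟨Equiv.swap 0 1, Equiv.swap 0 1 * Equiv.swap 2 3, ?_, ?_, ?_⟩
      · exact orderOf_eq_prime (by decide) (by decide)
      · exact orderOf_eq_prime (by decide) (by decide)
      · decide
  have h := hall (e.symm a) (e.symm b) ((e.symm.orderOf_eq a).trans ha)
    ((e.symm.orderOf_eq b).trans hb)
  obtain ⟨c, hc⟩ := isConj_iff.1 h
  have hc' : e c * a * (e c)⁻¹ = b := by
    have := congrArg e hc
    simpa using this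
  refine hsign ?_
  rw [← hc', map_mul, map_mul, map_inv, mul_comm (Equiv.Perm.sign (e c)), mul_inv_cancel_right]

theorem card_SL3_two : Nat.card (Matrix.SpecialLinearGroup (Fin 3) (ZMod 2)) = 168 ∧
    IsSimpleGroup (Matrix.SpecialLinearGroup (Fin 3) (ZMod 2)) := by
  have hone : ∀ z : ZMod 2, IsUnit z → z = 1 := by decide
  have hbij : Function.Bijective
      (Matrix.SpecialLinearGroup.toGL : Matrix.SpecialLinearGroup (Fin 3) (ZMod 2) → _) := by
    refine ⟨fun x y hxy => Subtype.ext (congrArg Units.val hxy), fun x => ?_⟩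
    exact ⟨⟨(x : Matrix (Fin 3) (Fin 3) (ZMod 2)),
      hone _ ((Matrix.isUnit_iff_isUnit_det _).1 x.isUnit)⟩, Units.ext rfl⟩
  let e := MulEquiv.ofBijective Matrix.SpecialLinearGroup.toGL hbij
  haveI := Generators.SmallPermGroups.isSimple_GL3
  exact ⟨(Nat.card_congr e.toEquiv).trans Generators.SmallPermGroups.card_GL3, e.isSimpleGroup⟩

theorem card_alt_six : Nat.card (alternatingGroup (Fin 6)) = 360 ∧
    IsSimpleGroup (alternatingGroup (Fin 6)) := by
  refine ⟨?_, alternatingGroup.isSimpleGroup (by rw [Nat.card_fin]; norm_num)⟩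
  rw [nat_card_alternatingGroup, Nat.card_fin]
  rfl

/-- A simple group of order `360` has no subgroup of index four, and a subgroup of order nine is
not its own normalizer. -/
theorem simple_360 [Finite H] [IsSimpleGroup H] (h : Nat.card H = 360) :
    (∀ K : Subgroup H, K.index ≠ 4) ∧ (∀ K : Subgroup H, K.Normal → Nat.card K ≠ 9) ∧
      (∀ K : Subgroup H, Nat.card K = 9 → Subgroup.normalizer (K : Set H) ≠ K) := by
  haveI : Fact (Nat.Prime 3) := ⟨Nat.prime_three⟩
  refine ⟨fun K hK => ?_, fun K hKn hK => ?_, fun K hK hN => ?_⟩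
  · have hne : K ≠ ⊤ := fun h' => by rw [h', Subgroup.index_top] at hK; omega
    have hcore : K.normalCore = ⊥ := (Subgroup.normalCore_normal K).eq_bot_or_eq_top.resolve_right
      fun h' => hne (eq_top_iff.2 (h' ▸ Subgroup.normalCore_le K))
    haveI : K.FiniteIndex := Subgroup.finiteIndex_of_finite
    have hinj : Function.Injective (MulAction.toPermHom H (H ⧸ K)) := by
      rw [← MonoidHom.ker_eq_bot_iff, ← Subgroup.normalCore_eq_ker, hcore]
    have hle := Nat.card_le_card_of_injective _ hinj
    rw [Nat.card_perm, h, show Nat.card (H ⧸ K) = 4 from hK] at hle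
    exact absurd hle (by decide)
  · rcases hKn.eq_bot_or_eq_top with h' | h' <;> rw [h'] at hK
    · rw [Subgroup.card_bot] at hK; omega
    · rw [Subgroup.card_top, h] at hK; omega
  · have hP : IsPGroup 3 K := IsPGroup.of_card (n := 2) (by rw [hK]; norm_num)
    have hdvd : ¬ 3 ∣ K.index := by
      have := K.card_mul_index
      rw [hK, h] at this
      omega
    let P : Sylow 3 H := hP.toSylow hdvd
    have hPK : (P : Subgroup H) = K := rfl
    have hcomm : IsMulCommutative K :=
      IsPGroup.isMulCommutative_of_card_eq_prime_sq (p := 3) (by rw [hK]; norm_num)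
    have hle : Subgroup.normalizer ((P : Subgroup H) : Set H) ≤
        Subgroup.centralizer ((P : Subgroup H) : Set H) := by
      rw [hPK, hN]
      exact fun x hx => Subgroup.mem_centralizer_iff.2 fun y hy =>
        congrArg Subtype.val (hcomm.is_comm.comm ⟨y, hy⟩ ⟨x, hx⟩)
    have hc := MonoidHom.ker_transferSylow_isComplement' P hle
    have hcard := hc.card_mul_card
    rw [show Nat.card (P : Subgroup H) = 9 from hK, h] at hcard
    rcases (MonoidHom.normal_ker (MonoidHom.transferSylow P hle)).eq_bot_or_eq_top with h' | h' <;>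
      rw [h'] at hcard
    · rw [Subgroup.card_bot] at hcard; omega
    · rw [Subgroup.card_top, h] at hcard; omega

end CfsgLib.InvChar.HJSylow
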