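import Cfsg.Agent.Lib.InvChar.HallJankoSylow.Data
import Cfsg.Agent.Lib.Minimal.ExtraspecialTwo
import Cfsg.Agent.Lib.PGroups.Extraspecial

/-!
Elements of order three and five in the centralizer of `z`.
-/

set_option autoImplicit false
set_option linter.style.haveILetI false
set_option linter.unusedSectionVars false

open Cfsg

set_option linter.deprecated false

namespace CfsgLib.InvChar.HJSylow.Setting

variable {G : Type*} [Group G] [Finite G] {z t : G} {Q : Subgroup G} (S : Setting z t Q)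
include S

theorem z_comm {q : G} (hq : q ∈ Q) : q * z = z * q := mem_cent.1 (S.Q_le hq)

theorem center_cases {x : Q} (hx : x ∈ Subgroup.center Q) : (x : G) = 1 ∨ (x : G) = z := by
  have hz' : (⟨z, S.z_mem⟩ : Q) ∈ Subgroup.center Q :=
    Subgroup.mem_center_iff.2 fun q => Subtype.ext (S.z_comm q.2)
  have hne : (⟨z, S.z_mem⟩ : Q) ≠ 1 := fun h => S.z_ne (congrArg Subtype.val h)
  rcases Minimal.ExtraspecialTwo.zE_cases S.Q_ext hx with h | h
  · exact Or.inl (congrArg Subtype.val h)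
  · right
    rcases Minimal.ExtraspecialTwo.zE_cases S.Q_ext hz' with h' | h'
    · exact absurd h' hne
    · exact congrArg Subtype.val (h.trans h'.symm)

theorem commutator_mem {a b : G} (ha : a ∈ Q) (hb : b ∈ Q) :
    a * b * a⁻¹ * b⁻¹ = 1 ∨ a * b * a⁻¹ * b⁻¹ = z := by
  have hm : (⟨a, ha⟩ : Q) * ⟨b, hb⟩ * (⟨a, ha⟩ : Q)⁻¹ * (⟨b, hb⟩ : Q)⁻¹ ∈ commutator Q := by
    rw [commutator_eq_closure]
    exact Subgroup.subset_closure ⟨⟨a, ha⟩, ⟨b, hb⟩, rfl⟩
  rw [S.Q_ext.1.2.2] at hm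
  exact S.center_cases hm

theorem sq_pow_Q {q : G} (hq : q ∈ Q) : q ^ 32 = 1 :=
  orderOf_dvd_iff_pow_eq_one.1 (S.Q_card ▸ Subgroup.orderOf_dvd_natCard Q hq)

theorem not_mem_Q {p : ℕ} (hp : p = 3 ∨ p = 5) {h : G} (hh : orderOf h = p) : h ∉ Q := fun hq => by
  have h1 := S.Q_card ▸ Subgroup.orderOf_dvd_natCard Q hq
  rw [hh] at h1
  rcases hp with rfl | rfl <;> norm_num at h1

/-- The fixed points in `Q` of an element of order three or five are congruent to `32`. -/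
theorem card_Q_cent_modEq {p : ℕ} [Fact p.Prime] {h : G} (hh : orderOf h = p) (hc : h ∈ cent z) :
    32 ≡ Nat.card ↥(Q ⊓ cent h) [MOD p] := by
  have h1 := set_modEq (hh ▸ pow_orderOf_eq_one h : h ^ p = 1) (Q : Set G)
    (fun x hx => S.Q_conj h hc x hx)
  have h2 : Nat.card {x : G // x ∈ (Q : Set G) ∧ x * h = h * x} = Nat.card ↥(Q ⊓ cent h) :=
    Nat.card_congr (Equiv.subtypeEquivRight fun x => by
      rw [Subgroup.mem_inf, mem_cent, SetLike.mem_coe])
  rw [h2] at h1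
  rwa [show Nat.card (Q : Set G) = 32 from S.Q_card] at h1

theorem card_Q_cent_ne {p : ℕ} (hp : p = 3 ∨ p = 5) {h : G} (hh : orderOf h = p)
    (hc : h ∈ cent z) : Nat.card ↥(Q ⊓ cent h) ≠ 32 := fun h32 => by
  have he : Q ⊓ cent h = Q :=
    Subgroup.eq_of_le_of_card_ge inf_le_left (by rw [h32, S.Q_card])
  refine S.not_mem_Q hp hh (S.Q_cen ⟨hc, Subgroup.mem_centralizer_iff.2 fun q hq => ?_⟩)
  exact mem_cent.1 ((he.ge hq : q ∈ Q ⊓ cent h)).2

theorem card_Q_cent_pow {h : G} : ∃ k ≤ 5, Nat.card ↥(Q ⊓ cent h) = 2 ^ k := by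
  have hd : Nat.card ↥(Q ⊓ cent h) ∣ 2 ^ 5 := by
    have := Subgroup.card_dvd_of_le (inf_le_left : Q ⊓ cent h ≤ Q)
    rw [S.Q_card] at this
    exact this
  exact (Nat.dvd_prime_pow Nat.prime_two).1 hd

theorem card_Q_cent_five {f : G} (hf : orderOf f = 5) (hc : f ∈ cent z) :
    Nat.card ↥(Q ⊓ cent f) = 2 := by
  haveI : Fact (Nat.Prime 5) := ⟨Nat.prime_five⟩
  obtain ⟨k, hk5, hk⟩ := S.card_Q_cent_pow (h := f)
  have hm := S.card_Q_cent_modEq hf hc
  have hn := S.card_Q_cent_ne (Or.inr rfl) hf hc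
  rw [hk] at hm hn ⊢
  interval_cases k <;> simp_all [Nat.ModEq]

/-- The noncentral involutions of `Q`. -/
def Qinv (z : G) (Q : Subgroup G) : Set G := {x | x ∈ Q ∧ x * x = 1 ∧ x ≠ 1 ∧ x ≠ z}

theorem exists_five : ∃ f ∈ cent z, orderOf f = 5 := by
  haveI : Fact (Nat.Prime 5) := ⟨Nat.prime_five⟩
  obtain ⟨f, hf⟩ := exists_prime_orderOf_dvd_card' (G := cent z) 5 (by rw [S.card_cent_z]; norm_num)
  exact ⟨f, f.2, by rw [Subgroup.orderOf_coe]; exact hf⟩

theorem card_Qinv : Nat.card (Qinv z Q) = 10 := by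
  haveI : Fact (Nat.Prime 5) := ⟨Nat.prime_five⟩
  obtain ⟨f, hfc, hf⟩ := S.exists_five
  have hsplit : Minimal.ExtraspecialTwo.numSq Q = Nat.card (Qinv z Q) + 2 := by
    classical
    haveI := Fintype.ofFinite G
    rw [Minimal.ExtraspecialTwo.numSq]
    have e : {x : Q // x ^ 2 = 1} ≃ ({x : G | x ∈ Q ∧ x * x = 1} : Set G) :=
      { toFun := fun x => ⟨(x.1 : G), x.1.2, by
          have := congrArg Subtype.val x.2
          rwa [Subgroup.coe_pow, sq] at this⟩
        invFun := fun x => ⟨⟨x.1, x.2.1⟩, Subtype.ext (by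
          rw [Subgroup.coe_pow, sq]; exact x.2.2)⟩
        left_inv := fun x => rfl
        right_inv := fun x => rfl }
    rw [Nat.card_congr e, Nat.card_coe_set_eq, Nat.card_coe_set_eq]
    have hU : ({x : G | x ∈ Q ∧ x * x = 1} : Set G) = Qinv z Q ∪ {1, z} := by
      ext x
      simp only [Qinv, Set.mem_setOf_eq, Set.mem_union, Set.mem_insert_iff, Set.mem_singleton_iff]
      constructor
      · rintro ⟨hq, hx⟩
        tauto
      · rintro (⟨hq, hx, -, -⟩ | rfl | rfl)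
        · exact ⟨hq, hx⟩
        · exact ⟨Q.one_mem, one_mul 1⟩
        · exact ⟨S.z_mem, S.zz⟩
    rw [hU, Set.ncard_union_eq (by
      rw [Set.disjoint_left]
      rintro x ⟨-, -, h1, h2⟩ (rfl | rfl)
      · exact h1 rfl
      · exact h2 rfl), Set.ncard_pair S.z_ne.symm]
  have hfix : {x : G // x ∈ Qinv z Q ∧ x * f = f * x} → False := by
    rintro ⟨x, ⟨hxQ, -, hx1, hxz⟩, hxf⟩
    have h2 := S.card_Q_cent_five hf hfc
    have hzm : z ∈ Q ⊓ cent f := ⟨S.z_mem, comm_of_mem_cent hfc⟩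
    have he := zpowers_eq_of_card Nat.prime_two h2 hzm S.z_ne
    have hxm : x ∈ Q ⊓ cent f := ⟨hxQ, mem_cent.2 hxf⟩
    classical
    rw [← he, mem_zpowers_iff_mem_range_orderOf, S.oz] at hxm
    simp [Finset.range_add_one, hx1, hxz] at hxm
  haveI : IsEmpty {x : G // x ∈ Qinv z Q ∧ x * f = f * x} := ⟨hfix⟩
  have hmod := set_modEq (hf ▸ pow_orderOf_eq_one f : f ^ 5 = 1) (Qinv z Q) (by
    rintro x ⟨hxQ, hxx, hx1, hxz⟩
    refine ⟨S.Q_conj f hfc x hxQ, ?_, fun h => hx1 ?_, fun h => hxz ?_⟩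
    · rw [show f * x * f⁻¹ * (f * x * f⁻¹) = f * (x * x) * f⁻¹ by group, hxx, mul_one,
        mul_inv_cancel]
    · rw [mul_inv_eq_one] at h
      exact mul_eq_left.1 h
    · have hfz : f * z = z * f := mem_cent.1 hfc
      rw [mul_inv_eq_iff_eq_mul, ← hfz] at h
      exact mul_left_cancel h)
  rw [Nat.card_of_isEmpty (α := {x : G // x ∈ Qinv z Q ∧ x * f = f * x})] at hmod
  obtain ⟨m, hm1, hc, hq⟩ := Minimal.ExtraspecialTwo.card_and_numSq S.Q_ext
  have hm : m = 2 := by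
    rw [S.Q_card, show (32 : ℕ) = 2 ^ 5 by norm_num] at hc
    have := Nat.pow_right_injective le_rfl hc
    omega
  subst hm
  rw [hsplit] at hq
  rcases hq with h | h
  · rw [Nat.ModEq, show Nat.card (Qinv z Q) = 18 by omega] at hmod
    norm_num at hmod
  · omega

/-- An element of order three in `C(z)` fixes a noncentral involution of `Q`. -/
theorem exists_fixed {w : G} (hw : orderOf w = 3) (hc : w ∈ cent z) :
    ∃ s ∈ Qinv z Q, s * w = w * s := by
  haveI : Fact (Nat.Prime 3) := ⟨Nat.prime_three⟩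
  by_contra hno
  push Not at hno
  haveI : IsEmpty {x : G // x ∈ Qinv z Q ∧ x * w = w * x} := ⟨fun x => hno x.1 x.2.1 x.2.2⟩
  have hmod := set_modEq (hw ▸ pow_orderOf_eq_one w : w ^ 3 = 1) (Qinv z Q) (by
    rintro x ⟨hxQ, hxx, hx1, hxz⟩
    refine ⟨S.Q_conj w hc x hxQ, ?_, fun h => hx1 ?_, fun h => hxz ?_⟩
    · rw [show w * x * w⁻¹ * (w * x * w⁻¹) = w * (x * x) * w⁻¹ by group, hxx, mul_one,
        mul_inv_cancel]
    · rw [mul_inv_eq_one] at h
      exact mul_eq_left.1 h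
    · have hfz : w * z = z * w := mem_cent.1 hc
      rw [mul_inv_eq_iff_eq_mul, ← hfz] at h
      exact mul_left_cancel h)
  rw [Nat.card_of_isEmpty (α := {x : G // x ∈ Qinv z Q ∧ x * w = w * x}), S.card_Qinv,
    Nat.ModEq] at hmod
  norm_num at hmod

theorem card_Q_cent_three {w : G} (hw : orderOf w = 3) (hc : w ∈ cent z) :
    Nat.card ↥(Q ⊓ cent w) = 8 := by
  haveI : Fact (Nat.Prime 3) := ⟨Nat.prime_three⟩
  obtain ⟨s, ⟨hsQ, -, hs1, hsz⟩, hsw⟩ := S.exists_fixed hw hc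
  obtain ⟨k, hk5, hk⟩ := S.card_Q_cent_pow (h := w)
  have hm := S.card_Q_cent_modEq hw hc
  have hn := S.card_Q_cent_ne (Or.inl rfl) hw hc
  have h2 : Nat.card ↥(Q ⊓ cent w) ≠ 2 := fun h2 => by
    have hzm : z ∈ Q ⊓ cent w := ⟨S.z_mem, comm_of_mem_cent hc⟩
    have he := zpowers_eq_of_card Nat.prime_two h2 hzm S.z_ne
    have hxm : s ∈ Q ⊓ cent w := ⟨hsQ, mem_cent.2 hsw⟩
    classical
    rw [← he, mem_zpowers_iff_mem_range_orderOf, S.oz] at hxm
    simp [Finset.range_add_one, hs1, hsz] at hxm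
  rw [hk] at hm hn h2 ⊢
  interval_cases k <;> simp_all [Nat.ModEq]

/-- Every noncentral element of `C_Q(w)` moves under it. -/
theorem exists_noncomm {w s : G} (hw : orderOf w = 3) (hc : w ∈ cent z) (hs : s ∈ Q)
    (hs1 : s ≠ 1) (hsz : s ≠ z) (hsw : s * w = w * s) :
    ∃ d ∈ Q ⊓ cent w, d * s * d⁻¹ = z * s := by
  haveI : Fact (Nat.Prime 3) := ⟨Nat.prime_three⟩
  haveI : Fact (Nat.Prime 2) := ⟨Nat.prime_two⟩
  let T : Set G := {x | x ∈ Q ∧ x * s ≠ s * x}
  have hcard : Nat.card T = 16 := by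
    have hsnc : (⟨s, hs⟩ : Q) ∉ Subgroup.center Q := fun h => by
      rcases S.center_cases h with h | h
      · exact hs1 h
      · exact hsz h
    set Cs := Subgroup.centralizer ({(⟨s, hs⟩ : Q)} : Set Q) with hCs
    have hidx : Cs.index = 2 := PGroups.IsExtraspecial.index_centralizer S.Q_ext hsnc
    have h16 : Nat.card Cs = 16 := by
      have := Cs.card_mul_index
      rw [hidx, S.Q_card] at this
      omega
    have e : T ≃ {x : Q // ¬ x ∈ Cs} :=
      { toFun := fun x => ⟨⟨x.1, x.2.1⟩, fun h => x.2.2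
          (congrArg Subtype.val (Subgroup.mem_centralizer_singleton_iff.1 h))⟩
        invFun := fun x => ⟨(x.1 : G), x.1.2, fun h => x.2
          (Subgroup.mem_centralizer_singleton_iff.2 (Subtype.ext h))⟩
        left_inv := fun x => rfl
        right_inv := fun x => rfl }
    classical
    haveI := Fintype.ofFinite Q
    rw [Nat.card_congr e, Nat.card_eq_fintype_card, Fintype.card_subtype_compl,
      ← Nat.card_eq_fintype_card, S.Q_card]
    rw [show Fintype.card {x : Q // x ∈ Cs} = 16 by rw [← Nat.card_eq_fintype_card]; exact h16]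
  have hws : w * s * w⁻¹ = s := by rw [← hsw, mul_inv_cancel_right]
  have hmod := set_modEq (hw ▸ pow_orderOf_eq_one w : w ^ 3 = 1) T (by
    rintro x ⟨hxQ, hxs⟩
    refine ⟨S.Q_conj w hc x hxQ, fun h => hxs ?_⟩
    refine mul_left_cancel (a := w) (mul_right_cancel (b := w⁻¹) ?_)
    calc w * (x * s) * w⁻¹ = w * x * w⁻¹ * (w * s * w⁻¹) := by group
      _ = s * (w * x * w⁻¹) := by rw [hws, h]
      _ = w * s * w⁻¹ * (w * x * w⁻¹) := by rw [hws]
      _ = w * (s * x) * w⁻¹ := by group)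
  obtain ⟨d, ⟨hdQ, hds⟩, hdw⟩ : Nonempty {x : G // x ∈ T ∧ x * w = w * x} := by
    by_contra hno
    haveI := not_nonempty_iff.1 hno
    rw [Nat.card_of_isEmpty (α := {x : G // x ∈ T ∧ x * w = w * x}), hcard, Nat.ModEq] at hmod
    norm_num at hmod
  refine ⟨d, ⟨hdQ, mem_cent.2 hdw⟩, ?_⟩
  rcases S.commutator_mem hdQ hs with h | h
  · exfalso
    refine hds ?_
    rw [mul_inv_eq_one, mul_inv_eq_iff_eq_mul] at h
    exact h
  · rw [mul_inv_eq_iff_eq_mul] at h
    exact h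

/-- The centralizer of an element of order three or five inside `C(z)`. -/
theorem z_cent {p : ℕ} (hp : p = 3 ∨ p = 5) {h : G} (hh : orderOf h = p) (hc : h ∈ cent z) :
    Nat.card ↥(cent z ⊓ cent h) = p * Nat.card ↥(Q ⊓ cent h) ∧
    (∀ x ∈ cent z ⊓ cent h, x ^ 2 = 1 → x ∈ Q) ∧
    (∀ x ∈ cent z ⊓ cent h, orderOf x = 2 → IsConj z x) ∧
    (∀ x ∈ cent z ⊓ cent h, x ^ 32 = 1 → x ∈ Q) := by
  obtain ⟨φ, hφ, hk⟩ := S.quot
  let hs : cent z := ⟨h, hc⟩
  have hord : orderOf (φ hs) = p := by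
    have hd : orderOf (φ hs) ∣ p :=
      hh ▸ (Subgroup.orderOf_coe hs).symm ▸ orderOf_map_dvd φ hs
    have hp' : p.Prime := by rcases hp with rfl | rfl <;> norm_num
    rcases hp'.eq_one_or_self_of_dvd _ hd with h1 | h1
    · exact absurd ((hk hs).1 (orderOf_eq_one_iff.1 h1)) (S.not_mem_Q hp hh)
    · exact h1
  have hC : Nat.card ↥(Subgroup.centralizer ({φ hs} : Set (alternatingGroup (Fin 5)))) = p := by
    rw [← alt_five_cent_card hp hord]
    exact Nat.card_congr (Equiv.subtypeEquivRight fun b => Subgroup.mem_centralizer_singleton_iff)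
  let K := cent z ⊓ cent h
  let ψ : K →* alternatingGroup (Fin 5) := φ.comp (Subgroup.inclusion inf_le_left)
  have hrange : ψ.range ≤ Subgroup.centralizer {φ hs} := by
    rintro _ ⟨x, rfl⟩
    rw [Subgroup.mem_centralizer_singleton_iff]
    change φ _ * φ hs = φ hs * φ _
    rw [← map_mul, ← map_mul]
    exact congrArg φ (Subtype.ext (mem_cent.1 x.2.2))
  have hker : Nat.card ψ.ker = Nat.card ↥(Q ⊓ cent h) :=
    Nat.card_congr
      { toFun := fun x => ⟨(x : K), ((hk _).1 x.2 : ((x : K) : G) ∈ Q), (x : K).2.2⟩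
        invFun := fun x => ⟨⟨x, S.Q_le x.2.1, x.2.2⟩, (hk _).2 x.2.1⟩
        left_inv := fun x => rfl
        right_inv := fun x => rfl }
  have hmem : ψ ⟨h, hc, self_mem_cent h⟩ = φ hs := rfl
  have hr : Nat.card ψ.range = p := by
    refine le_antisymm ((Subgroup.card_le_of_le hrange).trans hC.le) ?_
    calc p = orderOf (φ hs) := hord.symm
      _ = Nat.card (Subgroup.zpowers (φ hs)) := (Nat.card_zpowers _).symm
      _ ≤ Nat.card ψ.range :=
        Subgroup.card_le_of_le (Subgroup.zpowers_le.2 ⟨_, hmem⟩)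
  have hQ : ∀ x (hx : x ∈ K), ∀ k : ℕ, x ^ (2 ^ k) = 1 → x ∈ Q := by
    intro x hx k hxk
    refine (hk ⟨x, hx.1⟩).1 (orderOf_eq_one_iff.1 ?_)
    refine Nat.dvd_one.1 ?_
    have h1 : orderOf (φ ⟨x, hx.1⟩) ∣ p :=
      hr ▸ Subgroup.orderOf_dvd_natCard ψ.range ⟨⟨x, hx⟩, rfl⟩
    have h2 : orderOf (φ ⟨x, hx.1⟩) ∣ 2 ^ k := orderOf_dvd_of_pow_eq_one (by
      rw [← map_pow, show (⟨x, hx.1⟩ : cent z) ^ 2 ^ k = 1 from Subtype.ext hxk, map_one])
    have hcop : Nat.Coprime p (2 ^ k) := by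
      refine Nat.Coprime.pow_right k ?_
      rcases hp with rfl | rfl <;> norm_num
    exact hcop ▸ Nat.dvd_gcd h1 h2
  refine ⟨?_, fun x hx h2 => hQ x hx 1 (by simpa using h2),
    fun x hx hx2 => S.Q_inv x (hQ x hx 1 (by
      rw [pow_one]; exact hx2 ▸ pow_orderOf_eq_one x)) hx2,
    fun x hx h2 => hQ x hx 5 h2⟩
  rw [← hr, ← hker, ← Subgroup.index_ker, mul_comm, Subgroup.card_mul_index]

theorem card_z_cent_five {f : G} (hf : orderOf f = 5) (hc : f ∈ cent z) :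
    Nat.card ↥(cent z ⊓ cent f) = 10 := by
  rw [(S.z_cent (Or.inr rfl) hf hc).1, S.card_Q_cent_five hf hc]

theorem card_z_cent_three {w : G} (hw : orderOf w = 3) (hc : w ∈ cent z) :
    Nat.card ↥(cent z ⊓ cent w) = 24 := by
  rw [(S.z_cent (Or.inl rfl) hw hc).1, S.card_Q_cent_three hw hc]

end CfsgLib.InvChar.HJSylow.Setting
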